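import Cfsg.Agent.L0.M22.Pres
import Cfsg.Agent.L0.M22.Cov0
import Cfsg.Agent.L0.M22.Cov1

/-! The covering group. -/

set_option autoImplicit false
set_option maxRecDepth 100000

namespace Cfsg.Agent.L0.M22Pres

theorem lower {G : Type*} [Group G] [Finite G] {x : ℕ → G} (h : IsPres x 9 R) :
    LowerMult G (Multiplicative (ZMod 12)) :=
  lower_coprime (m := 4) (n := 3) (by norm_num)
    (lower_two h (M22Cov0.rep (by decide +kernel)) (M22Cov1.rep (by decide +kernel))
      [(3, 10), (1, 13), (-2, 15), (-4, 17), (1, 20), (3, 21), (-3, 24), (-4, 25), (4, 29)]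
      [(1, 7), (-2, 14), (1, 17), (-2, 21), (2, 24), (2, 25), (-2, 29)]
      (by decide +kernel) (by decide +kernel) (by decide +kernel))

end Cfsg.Agent.L0.M22Pres
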